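import Cfsg.Agent.H993.OC.Eng
import Cfsg.Agent.H763.OC.Refl
import Cfsg.Agent.H898.OC.Omk
import Cfsg.Agent.H464.ExtQO
import Cfsg.Agent.H464.ExtQSp

/-!
# S4891, defining characteristic: classical rows from a cuspidal datum which is not self-dual (helper627)

`CusOC p K k Z c` : cuspidal datum on `GL_k(K)`; `row_sp`, `row_odd`, `row_plus`, `wt_plus_four`, `row_minus`.
-/

set_option autoImplicit false

open scoped ComplexConjugate
open Cfsg

namespace Cfsg.Agent.H627.OC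

open Cfsg.Agent.H145.BR Cfsg.Agent.Characters Cfsg.Agent.H53.HC Cfsg.Agent.H477.HC Cfsg.Agent.H576.Ext
  Cfsg.Agent.H328.Gow Cfsg.Agent.H464.ExtR3 Cfsg.Agent.H993.OC Cfsg.Agent.H763.OC Module

universe u v w

/-- a cuspidal datum: not self-dual, `p`-rational, fixed by the field automorphisms of `p`-power order -/
structure CusOC (p : ℕ) (K : Type u) [Field K] (k : ℕ) (c : GL (Fin k) K → ℂ) : Prop where
  irr : IsIrrCharacter _ c
  cusp : IsCusp c
  dual : c ∘ ((Matrix.GeneralLinearGroup.map (RingHom.id K)).comp (invT k)) ≠ c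
  deg : ∃ d : ℕ, c 1 = d ∧ ¬ p ∣ d ∧ 1 < d
  rat : PRat p c
  fix : ∀ τ : K ≃+* K, ∃ m : ℕ, ¬ p ∣ m ∧ fmap ((τ ^ m : K ≃+* K) : K →+* K) c = c

variable {p : ℕ} [Fact p.Prime] {K : Type u} [Field K] [Finite K] [CharP K p] {k : ℕ} {c : GL (Fin k) K → ℂ}

section gen

variable {V : Type v} [AddCommGroup V] [Module K V] {F : CForm K V} {N : Subgroup F.iso} {S : Type w} [Group S]

/-- the character of the quotient -/
theorem wt_of [FiniteDimensional K V] [Finite V] [Fintype (F.Om k)] [Finite S] (hp2 : p ≠ 2) (hc : CusOC p K k c)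
    (D : SemiQ F N S) (hirr : IsIrrCharacter N (fun n : N => F.hc c (fun _ _ => 1) n)) (hne : (F.Om k).Nonempty)
    (hscal : ∀ (n : N) (a : Kˣ), (∀ v, ((n : F.iso) : V ≃ₗ[K] V) v = (a : K) • v) →
      c (Matrix.GeneralLinearGroup.scalar (Fin k) a) = c 1)
    {A : Subgroup (MulAut S)} (hA : IsPGroup p A) (hAut : A ≤ autG D) : ∃ θ, Wt p S A θ := by
  obtain ⟨d, h1, h2, h3⟩ := hc.deg
  have h4 : 0 < Nat.card (F.Om k) := by
    have := hne.to_subtype
    exact Nat.card_pos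
  refine hc_wt D (Core.isIrr_isClassFunction hc.irr) hirr h1 h2 (Cfsg.Agent.H898.OC.omk F hp2 k hne) ?_ hc.rat hc.fix
    hscal hA hAut
  calc 1 < d := h3
    _ ≤ Nat.card (F.Om k) * d := Nat.le_mul_of_pos_left d h4

theorem row_of [FiniteDimensional K V] [Finite V] [Fintype (F.Om k)] [Finite S] (hp2 : p ≠ 2) (hc : CusOC p K k c)
    (D : SemiQ F N S) (hD : ∀ α : MulAut S, ∃ s : Semi F, D.Ind s α)
    (hirr : IsIrrCharacter N (fun n : N => F.hc c (fun _ _ => 1) n)) (hne : (F.Om k).Nonempty)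
    (hscal : ∀ (n : N) (a : Kˣ), (∀ v, ((n : F.iso) : V ≃ₗ[K] V) v = (a : K) • v) →
      c (Matrix.GeneralLinearGroup.scalar (Fin k) a) = c 1) : OCRow p S :=
  fun _ hA => wt_of hp2 hc D hirr hne hscal hA (fun α _ => hD α)

omit [Finite K] in
/-- scalars in the isometry group are `±1` -/
theorem scal_pm [Nontrivial V] {g : F.iso} {a : Kˣ} (h : ∀ v, (g : V ≃ₗ[K] V) v = (a : K) • v)
    (hσ : ∀ t : K, F.σ t = t) : a = 1 ∨ a = -1 := by
  obtain ⟨v, hv⟩ := exists_ne (0 : V)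
  obtain ⟨u, hu⟩ : ∃ u, F.B u v ≠ 0 := by
    by_contra hcon
    push Not at hcon
    exact hv (F.nondeg v fun u => F.B_eq_zero (hcon u))
  have h1 := F.iso_B g u v
  rw [h, h, F.B_smul_left, F.B_smul_right, hσ, ← mul_assoc] at h1
  have h2 : (a : K) * a = 1 := mul_right_cancel₀ hu (h1.trans (one_mul _).symm)
  rcases mul_self_eq_one_iff.1 h2 with h3 | h3
  · exact Or.inl (Units.ext h3)
  · exact Or.inr (Units.ext h3)

/-- `-1` lies in `N` -/
def Neg (F : CForm K V) (N : Subgroup F.iso) : Prop := ∃ n : N, ∀ v, ((n : F.iso) : V ≃ₗ[K] V) v = -v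

/-- the condition on scalars -/
theorem hscal_of [Nontrivial V] (hσ : ∀ t : K, F.σ t = t)
    (hneg : Neg F N → c (Matrix.GeneralLinearGroup.scalar (Fin k) (-1)) = c 1)
    (n : N) (a : Kˣ) (h : ∀ v, ((n : F.iso) : V ≃ₗ[K] V) v = (a : K) • v) :
    c (Matrix.GeneralLinearGroup.scalar (Fin k) a) = c 1 := by
  rcases scal_pm h hσ with h1 | h1
  · rw [h1, map_one]
  · rw [h1]
    refine hneg ⟨n, fun v => ?_⟩
    rw [h, h1, Units.val_neg, Units.val_one, neg_one_smul]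

end gen

/-- **`PSp_{2m}(q)`** -/
theorem row_sp (hp2 : p ≠ 2) {m : ℕ} (hm : 2 ≤ m) (hk : k ≤ m) (hc : CusOC p K k c)
    (hneg : c (Matrix.GeneralLinearGroup.scalar (Fin k) (-1)) = c 1) : OCRow p (PSp m K) := by
  classical
  have h2 : (2 : K) ≠ 0 := two_ne_zero_of_char hp2
  have : NeZero m := ⟨by omega⟩
  have := finite_Om (CForm.spF K m) k
  have := finite_iso (CForm.spF K m)
  let _ := Fintype.ofFinite ((CForm.spF K m).Om k)
  let _ := Fintype.ofFinite (CForm.spF K m).iso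
  obtain ⟨D, hD⟩ := semiQ_sp (K := K) hm (Or.inr h2)
  obtain ⟨n, rfl⟩ : ∃ n, m = k + n := ⟨m - k, by omega⟩
  obtain ⟨⟨W₀, hW₀⟩, -⟩ := CForm.spF_frame (K := K) (p := p) k n
  have h1 := (CForm.spF K (k + n)).isIrr_hc_one hc.irr hc.cusp hc.dual hW₀
  refine row_of hp2 hc D hD ?_ ⟨W₀, hW₀⟩ (hscal_of (fun _ => rfl) fun _ => hneg)
  exact Core.isIrr_comp (⊤ : Subgroup (CForm.spF K (k + n)).iso).subtype (fun g => ⟨⟨g, trivial⟩, rfl⟩) h1

/-- **`PΩ_{2m+1}(q)`** -/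
theorem row_odd (hp2 : p ≠ 2) {m : ℕ} (hm : 3 ≤ m) (hk : k + 1 ≤ m) (hc : CusOC p K k c) :
    OCRow p (POmega K (quadFormOdd m K)) := by
  classical
  have h2 : (2 : K) ≠ 0 := two_ne_zero_of_char hp2
  have := finite_Om (CForm.oddF K m h2) k
  let _ := Fintype.ofFinite ((CForm.oddF K m h2).Om k)
  obtain ⟨D, hD⟩ := semiQ_odd (K := K) hm h2
  have h3 : 2 * k + 2 ≤ finrank K (Unit ⊕ (Fin m ⊕ Fin m) → K) := by
    rw [finrank_fintype_fun_eq_card, Fintype.card_sum, Fintype.card_sum, Fintype.card_unit, Fintype.card_fin]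
    omega
  obtain ⟨W₀, hW₀, -⟩ := exists_Om_perp (isQuad_odd K m h2) h2 0 h3
  refine row_of hp2 hc D hD (isIrr_hc_odd h2 hk hc.irr hc.cusp hc.dual) ⟨W₀, hW₀⟩
    (hscal_of (fun _ => rfl) fun hn => ?_)
  exfalso
  obtain ⟨n, hn⟩ := hn
  have h4 : LinearEquiv.det (((n : (CForm.oddF K m h2).iso)) :
      (Unit ⊕ (Fin m ⊕ Fin m) → K) ≃ₗ[K] (Unit ⊕ (Fin m ⊕ Fin m) → K)) = 1 := by
    let f : (CForm.oddF K m h2).iso →* Kˣ := LinearEquiv.det.comp (Subgroup.subtype _)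
    exact MonoidHom.mem_ker.1 (Abelianization.commutator_subset_ker f n.2)
  have h5 : (((n : (CForm.oddF K m h2).iso)) :
      (Unit ⊕ (Fin m ⊕ Fin m) → K) ≃ₗ[K] (Unit ⊕ (Fin m ⊕ Fin m) → K)).toLinearMap =
      (-1 : K) • LinearMap.id :=
    LinearMap.ext fun v => (hn v).trans (neg_one_smul K v).symm
  have h6 := congrArg Units.val h4
  rw [LinearEquiv.coe_det, h5, LinearMap.det_smul, LinearMap.det_id, mul_one, finrank_fintype_fun_eq_card,
    Fintype.card_sum, Fintype.card_sum, Fintype.card_unit, Fintype.card_fin, Units.val_one,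
    Odd.neg_one_pow ⟨m, by ring⟩] at h6
  apply h2
  have h7 : (2 : K) = 1 + 1 := one_add_one_eq_two.symm
  rw [h7]
  nth_rw 1 [← h6]
  exact neg_add_cancel 1

/-- **`PΩ⁺_{2m}(q)`, `m ≥ 5`** -/
theorem row_plus (hp2 : p ≠ 2) {m : ℕ} (hm : 5 ≤ m) (hk : k + 1 ≤ m) (hc : CusOC p K k c)
    (hneg : Neg (CForm.plusF K m) (commutator (CForm.plusF K m).iso) →
      c (Matrix.GeneralLinearGroup.scalar (Fin k) (-1)) = c 1) :
    OCRow p (POmega K (quadFormPlus m K)) := by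
  classical
  have h2 : (2 : K) ≠ 0 := two_ne_zero_of_char hp2
  have : NeZero m := ⟨by omega⟩
  have := finite_Om (CForm.plusF K m) k
  let _ := Fintype.ofFinite ((CForm.plusF K m).Om k)
  obtain ⟨D, hD⟩ := semiQ_plus (K := K) hm
  have h3 : 2 * k + 2 ≤ finrank K (Fin m ⊕ Fin m → K) := by
    rw [finrank_fintype_fun_eq_card, Fintype.card_sum, Fintype.card_fin]
    omega
  obtain ⟨W₀, hW₀, -⟩ := exists_Om_perp (isQuad_plus K m) h2 0 h3
  exact row_of hp2 hc D hD (isIrr_hc_plus h2 hk hc.irr hc.cusp hc.dual) ⟨W₀, hW₀⟩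
    (hscal_of (fun _ => rfl) hneg)

/-- **`PΩ⁺_8(q)`, `p ≥ 5`** -/
theorem row_plus_four (hp2 : p ≠ 2) (hp3 : p ≠ 3) (hk : k ≤ 3) (hc : CusOC p K k c)
    (hneg : Neg (CForm.plusF K 4) (commutator (CForm.plusF K 4).iso) →
      c (Matrix.GeneralLinearGroup.scalar (Fin k) (-1)) = c 1) :
    OCRow p (POmega K (quadFormPlus 4 K)) := by
  classical
  have h2 : (2 : K) ≠ 0 := two_ne_zero_of_char hp2
  have := finite_Om (CForm.plusF K 4) k
  let _ := Fintype.ofFinite ((CForm.plusF K 4).Om k)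
  obtain ⟨D, hD⟩ := semiQ_plus_four (K := K)
  have h3 : 2 * k + 2 ≤ finrank K (Fin 4 ⊕ Fin 4 → K) := by
    rw [finrank_fintype_fun_eq_card, Fintype.card_sum, Fintype.card_fin]
    omega
  obtain ⟨W₀, hW₀, -⟩ := exists_Om_perp (isQuad_plus K 4) h2 0 h3
  intro A hA
  refine wt_of hp2 hc D (isIrr_hc_plus h2 (by omega) hc.irr hc.cusp hc.dual) ⟨W₀, hW₀⟩
    (hscal_of (fun _ => rfl) hneg) hA fun α hα => ?_
  have hp : p.Prime := Fact.out
  obtain ⟨j, hj⟩ := hA ⟨α, hα⟩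
  have hj' : α ^ p ^ j = 1 := congrArg Subtype.val hj
  have h6 : α ^ 6 ∈ autG D := by
    refine Subgroup.pow_mem_of_index_ne_zero_of_dvd (by rw [hD]; norm_num) α fun m h0 h1 => ?_
    rw [hD] at h1
    interval_cases m <;> norm_num
  have hco : Nat.Coprime 6 (p ^ j) := by
    refine Nat.Coprime.pow_right j ?_
    rw [show (6 : ℕ) = 2 * 3 from rfl]
    exact Nat.Coprime.mul_left ((Nat.coprime_primes Nat.prime_two hp).2 hp2.symm)
      ((Nat.coprime_primes Nat.prime_three hp).2 hp3.symm)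
  obtain ⟨x, y, hxy⟩ := Nat.isCoprime_iff_coprime.2 hco
  have h5 : α = (α ^ 6) ^ x * (α ^ p ^ j) ^ y := by
    rw [← zpow_natCast, ← zpow_natCast, ← zpow_mul, ← zpow_mul, ← zpow_add, mul_comm (((6 : ℕ) : ℤ)), mul_comm _ y, hxy,
      zpow_one]
  rw [h5, hj', one_zpow, mul_one]
  exact zpow_mem h6 x

/-- **`PΩ⁻_{2m+2}(q)`, `m ≥ 3`** -/
theorem row_minus (hp2 : p ≠ 2) {m : ℕ} (hm : 3 ≤ m) {a b : K}
    (hab : ∀ z₁ z₂ : K, z₁ ^ 2 + a * z₁ * z₂ + b * z₂ ^ 2 = 0 → z₁ = 0 ∧ z₂ = 0) (hk : k ≤ m) (hc : CusOC p K k c)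
    (hneg : Neg (CForm.minusF K m a b hab) (commutator (CForm.minusF K m a b hab).iso) →
      c (Matrix.GeneralLinearGroup.scalar (Fin k) (-1)) = c 1) :
    OCRow p (POmega K (quadFormMinus m K a b)) := by
  classical
  have h2 : (2 : K) ≠ 0 := two_ne_zero_of_char hp2
  have := finite_Om (CForm.minusF K m a b hab) k
  let _ := Fintype.ofFinite ((CForm.minusF K m a b hab).Om k)
  obtain ⟨D, hD⟩ := semiQ_minus (K := K) hm hab
  have h3 : 2 * k + 2 ≤ finrank K ((Fin m ⊕ Fin m) ⊕ Fin 2 → K) := by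
    rw [finrank_fintype_fun_eq_card, Fintype.card_sum, Fintype.card_sum, Fintype.card_fin, Fintype.card_fin]
    omega
  obtain ⟨W₀, hW₀, -⟩ := exists_Om_perp (isQuad_minus K m a b hab) h2 0 h3
  exact row_of hp2 hc D hD (isIrr_hc_minus h2 hab hk hc.irr hc.cusp hc.dual) ⟨W₀, hW₀⟩
    (hscal_of (fun _ => rfl) hneg)

end Cfsg.Agent.H627.OC
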